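import Cfsg.Agent.FGS4.Co2Cent.Classify
import Cfsg.Agent.Golay.LeechCo1

/-!
# The action of the involution centraliser on the roots
-/

set_option autoImplicit false
set_option maxRecDepth 20000

namespace Cfsg.Agent.FGS4.Co2Cent

open Cfsg Cfsg.Agent Cfsg.Agent.Golay
open Cfsg.Agent.FGS4.ConwayOut (toFun toList sum_golay toFun_toList)

/-- An element of the stabiliser as a lattice automorphism. -/
def toCo0 : ↥Spor.Co2 →* ↥Co0 := Subgroup.inclusion inf_le_left

theorem toCo0_injective : Function.Injective toCo0 := Subgroup.inclusion_injective _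

theorem toCo0_smul (g : ↥Spor.Co2) (x : ↥leechLattice) : toCo0 g • x = g • x := rfl

theorem fix_vU (g : ↥Spor.Co2) : g • vU = vU := g.2.2

/-- An element of the stabiliser from a lattice automorphism. -/
def ofCo0 (g : ↥Co0) (h : g • vU = vU) : ↥Spor.Co2 := ⟨(g : Equiv.Perm ↥leechLattice), g.2, h⟩

theorem toCo0_ofCo0 (g : ↥Co0) (h : g • vU = vU) : toCo0 (ofCo0 g h) = g := rfl

theorem ofCo0_smul (g : ↥Co0) (h : g • vU = vU) (x : ↥leechLattice) : ofCo0 g h • x = g • x := rfl

theorem co2_ext {g h : ↥Spor.Co2} (e : ∀ x : ↥leechLattice, g • x = h • x) : g = h :=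
  Subtype.ext (Equiv.ext e)

theorem tSupp_mem : octᶜ ∈ supports (golayCode : Set (GolayPt → ZMod 2)) := compl_mem_supports oct_mem.1

/-- The lattice involution. -/
def tEl0 : ↥Co0 := monoEl 1 (one_mem _) octᶜ tSupp_mem

theorem tEl0_apply (x : ↥leechLattice) (i : GolayPt) :
    ((tEl0 • x : ↥leechLattice) : GolayPt → ℤ) i =
      if i ∈ oct then (x : GolayPt → ℤ) i else -(x : GolayPt → ℤ) i := by
  rw [tEl0, monoEl_apply, signedPerm_eq, sgnOf, Equiv.Perm.one_symm, Equiv.Perm.one_apply]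
  by_cases h : i ∈ oct <;> simp [h]

theorem tEl0_fix : tEl0 • vU = vU := Subtype.ext (funext fun i => by
  rw [tEl0_apply]
  split_ifs with h
  · rfl
  · rw [vU_apply, if_neg, neg_zero]
    rintro (rfl | rfl)
    · exact h oct_toFinset.2.2.2.1
    · exact h oct_toFinset.2.2.2.2)

/-- The involution. -/
def tEl : ↥Spor.Co2 := ofCo0 tEl0 tEl0_fix

theorem tEl_apply (x : ↥leechLattice) (i : GolayPt) :
    ((tEl • x : ↥leechLattice) : GolayPt → ℤ) i =
      if i ∈ oct then (x : GolayPt → ℤ) i else -(x : GolayPt → ℤ) i := tEl0_apply x i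

theorem fix_iff (x : ↥leechLattice) : tEl • x = x ↔ ∀ i, i ∉ oct → (x : GolayPt → ℤ) i = 0 := by
  constructor
  · intro h i hi
    have := congrArg (fun y : ↥leechLattice => (y : GolayPt → ℤ) i) h
    simp only [tEl_apply, if_neg hi] at this
    omega
  · intro h
    refine Subtype.ext (funext fun i => ?_)
    rw [tEl_apply]
    split_ifs with hi
    · rfl
    · rw [h i hi, neg_zero]

theorem tEl_orderOf : orderOf tEl = 2 := by
  have h1 : tEl * tEl = 1 := co2_ext fun x => Subtype.ext (funext fun i => by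
    rw [mul_smul, tEl_apply, tEl_apply, one_smul]
    split_ifs <;> simp)
  refine orderOf_eq_prime (by rw [pow_two, h1]) fun h => ?_
  have h2 := (fix_iff (e8 (pt 2))).1 (by rw [h, one_smul]) (pt 2) oct_toFinset.2.2.1
  simp [e8] at h2

/-- The centraliser. -/
abbrev CC : Subgroup ↥Spor.Co2 := Subgroup.centralizer ({tEl} : Set ↥Spor.Co2)

theorem cc_comm (g : ↥CC) (x : ↥leechLattice) : tEl • (g.1 • x) = g.1 • (tEl • x) := by
  rw [← mul_smul, ← mul_smul, Subgroup.mem_centralizer_singleton_iff.1 g.2]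

/-- An automorphism as an additive map. -/
def addHom (g : ↥Spor.Co2) : ↥leechLattice →+ ↥leechLattice :=
  AddMonoidHom.mk' (fun x => g • x) (co0_add (toCo0 g))

theorem addHom_apply (g : ↥Spor.Co2) (x : ↥leechLattice) : addHom g x = g • x := rfl

theorem dot_smul (g : ↥Spor.Co2) (a b : ↥leechLattice) :
    dotInt ((g • a : ↥leechLattice) : GolayPt → ℤ) ((g • b : ↥leechLattice) : GolayPt → ℤ) =
      dotInt (a : GolayPt → ℤ) (b : GolayPt → ℤ) := co0_dot (toCo0 g) a b

theorem rt_zero : rt 0 = 0 := Subtype.ext (funext fun i => by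
  revert i
  decide +kernel)

theorem rt_dot (z w : V) : dotInt (rt z : GolayPt → ℤ) (rt w : GolayPt → ℤ) = dotL (rtList z) (rtList w) :=
  dot_toFun _ _

theorem rt_supp (z : V) (i : GolayPt) (hi : i ∉ oct) : (rt z : GolayPt → ℤ) i = 0 :=
  (rt_facts z).2.1 i (Bool.not_eq_true _ ▸ mt (mem_oct i).2 hi)

theorem smul_rt (g : ↥CC) (z : V) : ∃ w, (z ≠ 0 → w ≠ 0) ∧ (g.1 • rt z = rt w ∨ g.1 • rt z = -rt w) := by
  by_cases hz : z = 0
  · exact ⟨0, fun h => absurd hz h, Or.inl (by rw [hz, rt_zero, ← addHom_apply, map_zero])⟩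
  have hs := (fix_iff (g.1 • rt z)).1 (by rw [cc_comm, (fix_iff (rt z)).2 (rt_supp z)])
  have hu : dotInt ((g.1 • rt z : ↥leechLattice) : GolayPt → ℤ) (vU : GolayPt → ℤ) = 0 := by
    have := dot_smul g.1 (rt z) vU
    rw [fix_vU] at this
    rw [this, dot_vU]
    have h := (rt_facts z).2.2.1
    show 4 * (toFun (rtList z) none + toFun (rtList z) (pt 0)) = 0
    omega
  have hn : dotInt ((g.1 • rt z : ↥leechLattice) : GolayPt → ℤ) ((g.1 • rt z : ↥leechLattice) : GolayPt → ℤ) = 32 := by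
    rw [dot_smul, rt_dot, (rt_facts z).2.2.2, if_neg hz]
  obtain ⟨w, hw, e⟩ := root_cases (g.1 • rt z).2 hs hu hn
  refine ⟨w, fun _ => hw, e.imp (fun h => Subtype.ext h) fun h => Subtype.ext ?_⟩
  rw [h]
  rfl

/-- The action on classes. -/
def act (g : ↥CC) (z : V) : V := phi ((g.1 • rt z : ↥leechLattice) : GolayPt → ℤ)

theorem phi_pm {x : ↥leechLattice} {w : V} (h : x = rt w ∨ x = -rt w) : phi (x : GolayPt → ℤ) = w := by
  rcases h with rfl | rfl
  · exact phi_rt w
  · exact phi_neg_rt w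

theorem act_spec (g : ↥CC) (z : V) : g.1 • rt z = rt (act g z) ∨ g.1 • rt z = -rt (act g z) := by
  obtain ⟨w, -, h⟩ := smul_rt g z
  rw [act, phi_pm h]
  exact h

theorem act_ne (g : ↥CC) {z : V} (hz : z ≠ 0) : act g z ≠ 0 := by
  obtain ⟨w, hw, h⟩ := smul_rt g z
  rw [act, phi_pm h]
  exact hw hz

theorem act_one (z : V) : act 1 z = z := by rw [act, OneMemClass.coe_one, one_smul, phi_rt]

theorem act_mul (g h : ↥CC) (z : V) : act (g * h) z = act g (act h z) := by
  refine phi_pm ?_
  rw [Subgroup.coe_mul, mul_smul]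
  rcases act_spec h z with e | e <;> rw [e]
  · exact act_spec g _
  · rw [← addHom_apply, map_neg, addHom_apply]
    rcases act_spec g (act h z) with e' | e' <;> rw [e']
    · exact Or.inr rfl
    · exact Or.inl (neg_neg _)

/-- The pairing of two lattice vectors. -/
def dpair (x y : ↥leechLattice) : ZMod 2 :=
  ((dotInt (x : GolayPt → ℤ) (y : GolayPt → ℤ) / 16 : ℤ) : ZMod 2)

theorem dpair_pm {x y : ↥leechLattice} {a b : V} (hx : x = rt a ∨ x = -rt a) (hy : y = rt b ∨ y = -rt b) :
    dpair x y = pair a b := by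
  have e1 : ∀ p q : ↥leechLattice, dotInt ((-p : ↥leechLattice) : GolayPt → ℤ) (q : GolayPt → ℤ) =
      -dotInt (p : GolayPt → ℤ) (q : GolayPt → ℤ) := fun p q => by simp [dotInt]
  have e2 : ∀ p q : ↥leechLattice, dotInt (p : GolayPt → ℤ) ((-q : ↥leechLattice) : GolayPt → ℤ) =
      -dotInt (p : GolayPt → ℤ) (q : GolayPt → ℤ) := fun p q => by simp [dotInt]
  obtain ⟨h1, h2⟩ := rt_pair a b
  have h1' := Int.dvd_of_emod_eq_zero h1
  rcases hx with rfl | rfl <;> rcases hy with rfl | rfl <;>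
    simp only [dpair, e1, e2, neg_neg, rt_dot, Int.neg_ediv_of_dvd h1', Int.cast_neg, ZMod.neg_eq_self_mod_two, h2]

theorem pair_act (g : ↥CC) (z w : V) : pair (act g z) (act g w) = pair z w := by
  rw [← dpair_pm (act_spec g z) (act_spec g w), dpair, dot_smul, rt_dot, (rt_pair z w).2]

theorem pair_add (z w b : V) : pair (z + w) b = pair z b + pair w b := by
  simp [pair, add_mul, Finset.sum_add_distrib]

theorem act_add (g : ↥CC) (z w : V) : act g (z + w) = act g z + act g w := funext fun k => by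
  have hu : act g (act g⁻¹ (dual k)) = dual k := by rw [← act_mul, mul_inv_cancel, act_one]
  rw [Pi.add_apply, ← pair_dual (act g (z + w)) k, ← pair_dual (act g z) k, ← pair_dual (act g w) k, ← hu,
    pair_act, pair_act, pair_act, pair_add]

/-- The action as a linear map. -/
def actLin (g : ↥CC) : V ≃ₗ[ZMod 2] V where
  __ := AddMonoidHom.toZModLinearMap 2 (AddMonoidHom.mk' (act g) (act_add g))
  invFun := act g⁻¹
  left_inv z := by
    show act g⁻¹ (act g z) = z
    rw [← act_mul, inv_mul_cancel, act_one]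
  right_inv z := by
    show act g (act g⁻¹ z) = z
    rw [← act_mul, mul_inv_cancel, act_one]

theorem actLin_apply (g : ↥CC) (z : V) : actLin g z = act g z := rfl

/-- The action as a homomorphism into the isometries. -/
def actHom : ↥CC →* ↥(Forms.isomGroup (Forms.sympB 3 (ZMod 2)) (fun _ => (0 : ZMod 2))) where
  toFun g := ⟨actLin g, fun u v => by rw [actLin_apply, actLin_apply, pair_sympB, pair_sympB, pair_act], fun _ => rfl⟩
  map_one' := Subtype.ext (LinearEquiv.ext fun z => act_one z)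
  map_mul' g h := Subtype.ext (LinearEquiv.ext fun z => act_mul g h z)

theorem actHom_apply (g : ↥CC) (z : V) : (actHom g : V ≃ₗ[ZMod 2] V) z = act g z := rfl

theorem mem_ker_iff {g : ↥CC} : g ∈ actHom.ker ↔ ∀ z, act g z = z := by
  rw [MonoidHom.mem_ker]
  constructor
  · intro h z
    rw [← actHom_apply, h]
    rfl
  · exact fun h => Subtype.ext (LinearEquiv.ext h)

end Cfsg.Agent.FGS4.Co2Cent
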