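import Cfsg.Agent.FGS4.Co2Cent.Roots

/-!
# The roots orthogonal to the fixed vector and supported on the octad
-/

set_option autoImplicit false
set_option maxRecDepth 20000

namespace Cfsg.Agent.FGS4.Co2Cent

open Cfsg Cfsg.Agent Cfsg.Agent.Golay
open Cfsg.Agent.FGS4.ConwayOut (toFun toList sum_golay toFun_toList)

/-- All lists of a given length with given entries. -/
def prodL : ℕ → List ℤ → List (List ℤ)
  | 0, _ => [[]]
  | n + 1, s => s.flatMap fun a => (prodL n s).map (a :: ·)

theorem mem_prodL (s : List ℤ) : ∀ u : List ℤ, (∀ a ∈ u, a ∈ s) → u ∈ prodL u.length s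
  | [], _ => by simp [prodL]
  | a :: u, h => by
    simp only [List.length_cons, prodL, List.mem_flatMap, List.mem_map]
    exact ⟨a, h a (by simp), u, mem_prodL s u fun b hb => h b (by simp [hb]), rfl⟩

/-- A vector on the octad with given eight values. -/
def spread (u : List ℤ) : List ℤ :=
  (List.range 24).map fun i => if octPts.contains i then u.getD (octPts.idxOf i) 0 else 0

/-- The test on eight values. -/
def isRoot8 (u : List ℤ) : Bool :=
  !(decide (u.getD 7 0 + u.getD 0 0 = 0)) || !(decide (u.sum % 8 = 0)) ||
    !(decide ((u.map fun a => a * a).sum = 32)) ||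
    (let l := spread u
     !(phiL l == 0) && (l == rtList (phiL l) || l == (rtList (phiL l)).map Neg.neg))

theorem root_enum : (prodL 8 [-2, 2]).all isRoot8 = true ∧ (prodL 8 [-4, 0, 4]).all isRoot8 = true := by
  decide +kernel

theorem oct_toFinset : oct = (octPts.map pt).toFinset ∧ (octPts.map pt).Nodup ∧ pt 2 ∉ oct ∧
    (none : GolayPt) ∈ oct ∧ pt 0 ∈ oct := by decide +kernel

theorem sum_oct (f : GolayPt → ℤ) (h : ∀ i, i ∉ oct → f i = 0) :
    ∑ i, f i = (octPts.map fun k => f (pt k)).sum := by
  rw [← Finset.sum_subset (Finset.subset_univ oct) fun i _ hi => h i hi, oct_toFinset.1,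
    List.sum_toFinset _ oct_toFinset.2.1, List.map_map]
  rfl

theorem spread_apply (f : ℕ → ℤ) (i : GolayPt) :
    toFun (spread (octPts.map f)) i = if i ∈ oct then f (idx i) else 0 := by
  simp only [toFun, spread, List.getD_eq_getElem?_getD, List.getElem?_map, List.getElem?_range (idx_lt i),
    Option.map_some, Option.getD_some]
  by_cases h : octPts.contains (idx i) = true
  · rw [if_pos h, if_pos ((mem_oct i).2 h), List.getElem?_idxOf (List.contains_iff_mem.1 h)]
    simp
  · rw [if_neg h, if_neg (mt (mem_oct i).1 h)]

theorem toFun_neg (l : List ℤ) : toFun (l.map Neg.neg) = -toFun l := funext fun i => by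
  simp only [toFun, Pi.neg_apply, List.getD_eq_getElem?_getD, List.getElem?_map]
  cases l[idx i]? <;> simp

theorem code_sub_oct {s : Finset GolayPt} (hs : s ∈ supports (golayCode : Set (GolayPt → ZMod 2)))
    (hsub : s ⊆ oct) : s = ∅ ∨ s = oct := by
  obtain ⟨i, hi, he⟩ := inC_eq_encode (mem_supports_iff.1 hs)
  have h := List.all_eq_true.1 code_in_oct i (List.mem_range.2 (by simpa using hi))
  simp only [he, Bool.or_eq_true, Bool.not_eq_true', beq_eq_false_iff_ne, beq_iff_eq] at h
  have hand : mask s &&& 9347075 = mask s := Nat.eq_of_testBit_eq fun j => by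
    rw [Nat.testBit_and]
    cases hb : (mask s).testBit j
    · simp
    · have hj : j < 24 := by
        by_contra hj
        rw [Nat.testBit_lt_two_pow (lt_of_lt_of_le (mask_lt s) (Nat.pow_le_pow_right (by norm_num) (by omega)))] at hb
        cases hb
      have hp : pt j ∈ s := by
        have := testBit_mask s (pt j)
        rw [idx_pt hj, hb] at this
        simpa using this.symm
      have := mem_bset.1 (hsub hp)
      rw [idx_pt hj] at this
      rw [this]; rfl
  rcases h with (h | h) | h
  · exact absurd hand h
  · left; rw [← bset_mask s, h, bset_zero]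
  · right; rw [← bset_mask s, h]; rfl

/-- The classification of the roots. -/
theorem root_cases {x : GolayPt → ℤ} (hx : x ∈ leechLattice) (hsupp : ∀ i, i ∉ oct → x i = 0)
    (hu : dotInt x (vU : GolayPt → ℤ) = 0) (hn : dotInt x x = 32) :
    ∃ z : V, z ≠ 0 ∧ (x = rt z ∨ x = -(rt z : GolayPt → ℤ)) := by
  obtain ⟨m, y, hm, hy, hy2, hsum⟩ := (mem_leech_iff.1 hx).normalize
  have h2 := hy (pt 2)
  rw [hsupp _ oct_toFinset.2.2.1] at h2
  have hm0 : m = 0 := by omega
  subst hm0
  rw [mem_code_iff_support, support₂_red2] at hy2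
  have hsub : (Finset.univ.filter fun i => ¬ (2 : ℤ) ∣ y i) ⊆ oct := fun i hi => by
    by_contra hio
    have := hy i
    rw [hsupp i hio] at this
    simp only [Finset.mem_filter, Finset.mem_univ, true_and] at hi
    omega
  have hle : ∀ i, -5 ≤ x i ∧ x i ≤ 5 := fun i => by
    have h : x i * x i ≤ 32 := hn ▸ Finset.single_le_sum (f := fun j => x j * x j)
      (fun j _ => mul_self_nonneg _) (Finset.mem_univ i)
    constructor <;> nlinarith
  have hu0 : x none + x (pt 0) = 0 := by rw [dot_vU] at hu; omega
  have key : isRoot8 (octPts.map fun k => x (pt k)) = true := by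
    rcases code_sub_oct hy2 hsub with hS | hS
    · refine List.all_eq_true.1 root_enum.2 _ ?_
      refine mem_prodL [-4, 0, 4] (octPts.map fun k => x (pt k)) fun a ha => ?_
      obtain ⟨k, -, rfl⟩ := List.mem_map.1 ha
      have h3 : (2 : ℤ) ∣ y (pt k) := by
        by_contra h
        have : pt k ∈ (∅ : Finset GolayPt) := hS ▸ by simpa using h
        simp at this
      have h4 := hy (pt k)
      have h5 := hle (pt k)
      simp only [List.mem_cons, List.not_mem_nil, or_false]
      omega
    · refine List.all_eq_true.1 root_enum.1 _ ?_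
      refine mem_prodL [-2, 2] (octPts.map fun k => x (pt k)) fun a ha => ?_
      obtain ⟨k, hk, rfl⟩ := List.mem_map.1 ha
      have h3 : ¬ (2 : ℤ) ∣ y (pt k) := by
        have : pt k ∈ oct := by
          rw [oct_toFinset.1]; exact List.mem_toFinset.2 (List.mem_map_of_mem hk)
        rw [← hS] at this
        simpa using this
      have h4 := hy (pt k)
      have h5 := hle (pt k)
      simp only [List.mem_cons, List.not_mem_nil, or_false]
      omega
  have hl : toFun (spread (octPts.map fun k => x (pt k))) = x := funext fun i => by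
    rw [spread_apply]
    split_ifs with h
    · rw [pt_idx]
    · exact (hsupp i h).symm
  have c1 : (octPts.map fun k => x (pt k)).getD 7 0 + (octPts.map fun k => x (pt k)).getD 0 0 = 0 := hu0
  have c2 : (octPts.map fun k => x (pt k)).sum % 8 = 0 := by rw [← sum_oct x hsupp]; omega
  have c3 : ((octPts.map fun k => x (pt k)).map fun a => a * a).sum = 32 := by
    rw [List.map_map]
    exact (sum_oct (fun i => x i * x i) fun i hi => by simp [hsupp i hi]).symm.trans hn
  simp only [isRoot8, c1, c2, c3, decide_true, Bool.not_true, Bool.false_or, Bool.and_eq_true,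
    Bool.not_eq_true', beq_eq_false_iff_ne, Bool.or_eq_true, beq_iff_eq] at key
  refine ⟨_, key.1, key.2.imp (fun h => ?_) fun h => ?_⟩
  · exact hl.symm.trans (congrArg toFun h)
  · exact hl.symm.trans ((congrArg toFun h).trans (toFun_neg _))

end Cfsg.Agent.FGS4.Co2Cent
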