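import Cfsg.Agent.FGS4.Co2Cent.Kernel
import Cfsg.Prelude.Def_Transfer

/-!
# The kernel is extraspecial of order 512
-/

set_option autoImplicit false
set_option maxRecDepth 20000

namespace Cfsg.Agent.FGS4.Co2Cent

open Cfsg Cfsg.Agent Cfsg.Agent.Golay
open scoped Pointwise commutatorElement

/-- The point fixer of the octad. -/
def fixN : Subgroup (Equiv.Perm GolayPt) := M24 ⊓ fixingSubgroup (Equiv.Perm GolayPt) (↑oct : Set GolayPt)

/-- The code words missing the octad. -/
def codeD : Set (Finset GolayPt) :=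
  {c | c ∈ supports (golayCode : Set (GolayPt → ZMod 2)) ∧ Disjoint c oct}

theorem fixN_fix {σ : Equiv.Perm GolayPt} (h : σ ∈ fixN) {i : GolayPt} (hi : i ∈ oct) : σ i = i :=
  (mem_fixer_iff.1 h).2 i hi

theorem mono_fix {σ : Equiv.Perm GolayPt} (hσ : σ ∈ fixN) {c : Finset GolayPt} (hc : c ∈ codeD)
    {x : ↥leechLattice} (hx : ∀ i, i ∉ oct → (x : GolayPt → ℤ) i = 0) : monoEl σ hσ.1 c hc.1 • x = x := by
  refine Subtype.ext (funext fun i => ?_)
  rw [monoEl_apply, signedPerm_eq]
  by_cases hi : i ∈ oct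
  · rw [show σ.symm i = i from (Equiv.symm_apply_eq σ).2 (fixN_fix hσ hi).symm, sgnOf,
      if_neg (Finset.disjoint_right.1 hc.2 hi), one_mul]
  · rw [hx i hi, hx _ fun h => hi (by
      have := fixN_fix hσ h
      rw [Equiv.apply_symm_apply] at this
      rwa [this]), mul_zero]

theorem vU_supp (i : GolayPt) (hi : i ∉ oct) : (vU : GolayPt → ℤ) i = 0 := by
  rw [vU_apply, if_neg]
  rintro (rfl | rfl)
  · exact hi oct_toFinset.2.2.2.1
  · exact hi oct_toFinset.2.2.2.2

/-- A kernel element. -/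
def kerEl (σ : ↥fixN) (c : ↥codeD) : ↥CC :=
  ⟨ofCo0 (monoEl σ.1 σ.2.1 c.1 c.2.1) (mono_fix σ.2 c.2 vU_supp), by
    refine Subgroup.mem_centralizer_singleton_iff.2 (co2_ext fun x => Subtype.ext (funext fun i => ?_))
    rw [mul_smul, mul_smul, tEl_apply, ofCo0_smul, ofCo0_smul, monoEl_apply, monoEl_apply, signedPerm_eq,
      signedPerm_eq, tEl_apply]
    by_cases hi : i ∈ oct
    · rw [show σ.1.symm i = i from (Equiv.symm_apply_eq _).2 (fixN_fix σ.2 hi).symm]
      simp [hi]
    · have h2 : σ.1.symm i ∉ oct := fun h => hi (by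
        have := fixN_fix σ.2 h
        rw [Equiv.apply_symm_apply] at this
        rwa [this])
      simp [hi, h2]⟩

theorem kerEl_mem (σ : ↥fixN) (c : ↥codeD) : kerEl σ c ∈ actHom.ker := mem_ker_iff.2 fun z => by
  refine phi_pm (Or.inl ?_)
  exact mono_fix σ.2 c.2 (rt_supp z)

/-- The kernel. -/
abbrev QQ : Subgroup ↥CC := actHom.ker

/-- The kernel inside the automorphisms of the lattice. -/
def iotaQ : ↥QQ →* ↥Co0 := toCo0.comp (CC.subtype.comp QQ.subtype)

theorem iotaQ_injective : Function.Injective iotaQ := fun _ _ h =>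
  Subtype.ext (Subtype.ext (toCo0_injective h))

/-- A kernel element. -/
def qEl (σ : ↥fixN) (c : ↥codeD) : ↥QQ := ⟨kerEl σ c, kerEl_mem σ c⟩

theorem iota_qEl (σ : ↥fixN) (c : ↥codeD) : iotaQ (qEl σ c) = monoEl σ.1 σ.2.1 c.1 c.2.1 := rfl

theorem qEl_surj (q : ↥QQ) : ∃ σ c, qEl σ c = q := by
  obtain ⟨σ, hσ, c, hc, e, hfix, hd⟩ := ker_struct q.2
  exact ⟨⟨σ, mem_fixer_iff.2 ⟨hσ, hfix⟩⟩, ⟨c, hc, hd⟩, iotaQ_injective e.symm⟩

theorem qEl_bij : Function.Bijective fun p : ↥fixN × ↥codeD => qEl p.1 p.2 := by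
  refine ⟨fun p q h => ?_, fun q => ?_⟩
  · have h' := congrArg iotaQ h
    simp only [iota_qEl] at h'
    have := monoEl_injective h'
    exact Prod.ext (Subtype.ext this.1) (Subtype.ext this.2)
  · obtain ⟨σ, c, h⟩ := qEl_surj q
    exact ⟨(σ, c), h⟩

theorem disjoint_oct_iff (s : Finset GolayPt) : Disjoint s oct ↔ mask s &&& 9347075 = 0 := by
  rw [Finset.disjoint_left]
  constructor
  · intro h
    refine Nat.eq_of_testBit_eq fun j => ?_
    rw [Nat.testBit_and, Nat.zero_testBit]
    by_cases hj : j < 24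
    · have h1 := testBit_mask s (pt j)
      rw [idx_pt hj] at h1
      rw [h1]
      by_cases hp : pt j ∈ s
      · have := h hp
        rw [oct, mem_bset, idx_pt hj] at this
        simp [Bool.eq_false_iff.2 this]
      · simp [hp]
    · rw [Nat.testBit_lt_two_pow (lt_of_lt_of_le (mask_lt s) (Nat.pow_le_pow_right (by norm_num) (by omega))),
        Bool.false_and]
  · intro h p hp hpo
    have := congrArg (fun n : ℕ => n.testBit (idx p)) h
    simp only [Nat.testBit_and, Nat.zero_testBit, testBit_mask, hp, decide_true, Bool.true_and] at this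
    rw [oct, mem_bset, this] at hpo
    exact absurd hpo (by decide)

theorem codeD_ncard : codeD.ncard = 32 := by
  rw [ncard_supports_filter (fun m => m &&& 9347075 == 0) codeD (fun s => by
    rw [codeD, Set.mem_ofPred_eq, mem_supports_iff, disjoint_oct_iff, beq_iff_eq])]
  decide +kernel

theorem card_QQ : Nat.card ↥QQ = 2 ^ 9 := by
  rw [← Nat.card_congr (Equiv.ofBijective _ qEl_bij), Nat.card_prod, Nat.card_coe_set_eq, codeD_ncard,
    show Nat.card ↥fixN = 16 from fixer_std_card]
  norm_num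

theorem isP_QQ : IsPGroup 2 ↥QQ := IsPGroup.of_card card_QQ

theorem sq_check : allB (fun i => let n := encode i
    !(n &&& 9347075 == 0) || fixCodes.all fun f => let d := n ^^^ mapMask f n
      d == 0 || d == (16777215 ^^^ 9347075)) 12 0 = true := by decide +kernel

theorem sep_check : fixCodes.all (fun f => f == idCode || (List.range 4096).any fun i =>
    let n := encode i
    (n &&& 9347075 == 0) && !(mapMask f n == n)) = true := by decide +kernel

theorem compl_codeD : octᶜ ∈ codeD := ⟨tSupp_mem, disjoint_compl_left⟩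

theorem empty_codeD : (∅ : Finset GolayPt) ∈ codeD := ⟨empty_mem_supports, Finset.disjoint_empty_left _⟩

/-- The involution in the kernel. -/
def tQ : ↥QQ := qEl 1 ⟨octᶜ, compl_codeD⟩

theorem tQ_val : (tQ.1 : ↥CC).1 = tEl := rfl

theorem tQ_comm (q : ↥QQ) : Commute tQ q := by
  refine Subtype.ext (Subtype.ext ?_)
  show tQ.1.1 * q.1.1 = q.1.1 * tQ.1.1
  rw [tQ_val]
  exact (Subgroup.mem_centralizer_singleton_iff.1 q.1.2).symm

theorem tQ_sq : tQ * tQ = 1 := by
  refine Subtype.ext (Subtype.ext ?_)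
  show tQ.1.1 * tQ.1.1 = 1
  rw [tQ_val, ← pow_two, ← tEl_orderOf, pow_orderOf_eq_one]

theorem tQ_ne : tQ ≠ 1 := fun h => by
  have h1 : tEl = 1 := by rw [← tQ_val, h]; rfl
  have h2 := tEl_orderOf
  rw [h1, orderOf_one] at h2
  omega

theorem iota_tQ : iotaQ tQ = monoEl 1 (one_mem _) octᶜ tSupp_mem := rfl

theorem sq_cases (q : ↥QQ) : q * q = 1 ∨ q * q = tQ := by
  obtain ⟨σ, c, rfl⟩ := qEl_surj q
  obtain ⟨f, hf, ef⟩ := fixer_std σ.2
  obtain ⟨i, hi, he⟩ := inC_eq_encode (mem_supports_iff.1 c.2.1)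
  have h := allB_spec _ 12 0 sq_check i (Nat.zero_le _) (by simpa using hi)
  simp only [he, (disjoint_oct_iff c.1).1 c.2.2, beq_self_eq_true, Bool.not_true, Bool.false_or,
    List.all_eq_true, Bool.or_eq_true, beq_iff_eq] at h
  have hsq : σ.1 * σ.1 = 1 := fixer_sq oct_mem σ.2
  have hm : bset (mask c.1 ^^^ mapMask f (mask c.1)) = symmDiff c.1 (σ.1 • c.1) := by
    rw [bset_xor, bset_mapMask (fixCode_spec hf).1, bset_mask, ef]
  rcases h f hf with h' | h' <;> rw [h'] at hm
  · left
    refine iotaQ_injective ?_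
    rw [map_mul, map_one, iota_qEl, monoEl_mul, ← monoEl_one]
    exact monoEl_congr hsq (hm.symm.trans bset_zero)
  · right
    refine iotaQ_injective ?_
    rw [map_mul, iota_qEl, monoEl_mul, iota_tQ]
    exact monoEl_congr hsq (hm.symm.trans bset_compl)

theorem center_cases {q : ↥QQ} (h : q ∈ Subgroup.center ↥QQ) : q = 1 ∨ q = tQ := by
  classical
  obtain ⟨σ, c, rfl⟩ := qEl_surj q
  rw [Subgroup.mem_center_iff] at h
  have k1 : ∀ (τ : ↥fixN) (d : ↥codeD), symmDiff d.1 (τ.1 • c.1) = symmDiff c.1 (σ.1 • d.1) := fun τ d => by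
    have := congrArg iotaQ (h (qEl τ d))
    rw [map_mul, map_mul, iota_qEl, iota_qEl, monoEl_mul, monoEl_mul] at this
    exact (monoEl_injective this).2
  have hσ : σ.1 = 1 := by
    obtain ⟨f, hf, ef⟩ := fixer_std σ.2
    have h1 := List.all_eq_true.1 sep_check f hf
    simp only [Bool.or_eq_true, beq_iff_eq, List.any_eq_true, Bool.and_eq_true, Bool.not_eq_true',
      beq_eq_false_iff_ne, List.mem_range] at h1
    rcases h1 with rfl | ⟨i, -, hdis, hne⟩
    · rw [← ef, permOf_idCode]
    · exfalso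
      have hd : bset (encode i) ∈ codeD :=
        ⟨bset_mem_supports (inC_encode i), (disjoint_oct_iff _).2 (by rw [mask_bset (encode_lt i)]; exact hdis)⟩
      have e2 := k1 1 ⟨_, hd⟩
      rw [OneMemClass.coe_one, one_smul, symmDiff_comm, symmDiff_right_inj] at e2
      have e3 := congrArg mask e2
      rw [← ef, mask_smul (fixCode_spec hf).1, mask_bset (encode_lt i)] at e3
      exact hne e3.symm
  have hfix : ∀ τ : ↥fixN, τ.1 • c.1 = c.1 := fun τ => by
    have := k1 τ ⟨∅, empty_codeD⟩
    simp only [Finset.smul_finset_empty] at this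
    simpa [← Finset.bot_eq_empty] using this
  by_cases hc : c.1 = ∅
  · left
    refine iotaQ_injective ?_
    rw [map_one, iota_qEl, ← monoEl_one]
    exact monoEl_congr hσ hc
  · right
    refine iotaQ_injective ?_
    rw [iota_qEl, iota_tQ]
    refine monoEl_congr hσ (le_antisymm (fun p hp => Finset.mem_compl.2 (Finset.disjoint_left.1 c.2.2 hp))
      fun p hp => ?_)
    obtain ⟨p0, hp0⟩ := Finset.nonempty_iff_ne_empty.2 hc
    obtain ⟨τ, hτ, e⟩ := fixer_transitive oct_mem (Finset.disjoint_left.1 c.2.2 hp0) (Finset.mem_compl.1 hp)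
    have h3 := Finset.smul_mem_smul_finset (a := τ) hp0
    rw [hfix ⟨τ, hτ⟩, Equiv.Perm.smul_def, e] at h3
    exact h3

theorem tQ_mem_center : tQ ∈ Subgroup.center ↥QQ := Subgroup.mem_center_iff.2 fun q => (tQ_comm q).symm

theorem mem_center_iff' {q : ↥QQ} : q ∈ Subgroup.center ↥QQ ↔ q = 1 ∨ q = tQ :=
  ⟨center_cases, by rintro (rfl | rfl); exacts [one_mem _, tQ_mem_center]⟩

theorem card_center_QQ : Nat.card (Subgroup.center ↥QQ) = 2 := by
  rw [← SetLike.coe_sort_coe, Nat.card_coe_set_eq, show (↑(Subgroup.center ↥QQ) : Set ↥QQ) = {1, tQ} from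
    Set.ext fun q => mem_center_iff', Set.ncard_pair (Ne.symm tQ_ne)]

theorem comm_cases (a b : ↥QQ) : a * b = b * a ∨ a * b = b * a * tQ := by
  have hZ : ∀ x : ↥QQ, x * x ∈ Subgroup.center ↥QQ := fun x => mem_center_iff'.2 (sq_cases x)
  have h : a * b * a⁻¹ * b⁻¹ ∈ Subgroup.center ↥QQ := by
    rw [show a * b * a⁻¹ * b⁻¹ = a * a * ((a⁻¹ * b) * (a⁻¹ * b)) * (b * b)⁻¹ by group]
    exact mul_mem (mul_mem (hZ a) (hZ _)) (inv_mem (hZ b))
  have e : a * b = (a * b * a⁻¹ * b⁻¹) * (b * a) := by group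
  rcases center_cases h with h' | h'
  · left; rw [e, h', one_mul]
  · right; rw [e, h', (tQ_comm (b * a)).eq]

theorem exists_noncomm {x : ↥QQ} (hx : x ∉ Subgroup.center ↥QQ) : ∃ y, x * y = y * x * tQ := by
  by_contra hc
  push Not at hc
  exact hx (Subgroup.mem_center_iff.2 fun y => (((comm_cases x y).resolve_right (hc y)).symm))

theorem commutator_eq : commutator ↥QQ = Subgroup.center ↥QQ := by
  refine le_antisymm ?_ fun q hq => ?_
  · rw [commutator_def, Subgroup.commutator_le]
    intro a _ b _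
    rw [commutatorElement_def]
    rcases comm_cases a b with h | h
    · rw [h]; group; exact one_mem _
    · rw [show a * b * a⁻¹ * b⁻¹ = tQ by rw [h, mul_assoc (b * a), (tQ_comm a⁻¹).eq]; group; rw [← (tQ_comm b).eq]; group]
      exact tQ_mem_center
  · rcases center_cases hq with rfl | rfl
    · exact one_mem _
    · obtain ⟨x, hx⟩ : ∃ x, x ∉ Subgroup.center ↥QQ := by
        by_contra hc
        push Not at hc
        have := card_center_QQ
        rw [(Subgroup.eq_top_iff' _).2 hc, Subgroup.card_top, card_QQ] at this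
        norm_num at this
      obtain ⟨y, hy⟩ := exists_noncomm hx
      have h : tQ = ⁅x, y⁆ := by
        rw [commutatorElement_def, hy, mul_assoc (y * x), (tQ_comm x⁻¹).eq]
        group
        rw [← (tQ_comm y).eq]
        group
      rw [h]
      exact Subgroup.commutator_mem_commutator (Subgroup.mem_top _) (Subgroup.mem_top _)

theorem frattini_eq : frattini ↥QQ = Subgroup.center ↥QQ := by
  have hfin : Finite ↥QQ := Nat.finite_of_card_ne_zero (by rw [card_QQ]; norm_num)
  refine le_antisymm (fun q hq => ?_) ?_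
  · by_contra hc
    obtain ⟨y, hy⟩ := exists_noncomm hc
    have hidx : (Subgroup.centralizer ({y} : Set ↥QQ)).index = 2 := by
      refine Subgroup.index_eq_two_iff.2 ⟨q, fun b => ?_⟩
      simp only [Subgroup.mem_centralizer_singleton_iff]
      rcases comm_cases b y with hb | hb
      · right
        refine ⟨hb, fun h => tQ_ne ?_⟩
        have e : b * q * y = y * (b * q) * tQ := by
          rw [mul_assoc b q y, hy, ← mul_assoc b, ← mul_assoc b y q, hb, mul_assoc y b q]
        rw [e, mul_eq_left] at h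
        exact h
      · left
        refine ⟨?_, fun h => tQ_ne ?_⟩
        · calc b * q * y = b * y * q * tQ := by rw [mul_assoc b q y, hy]; group
            _ = y * b * (tQ * q) * tQ := by rw [hb]; group
            _ = y * (b * q) * (tQ * tQ) := by rw [(tQ_comm q).eq]; group
            _ = y * (b * q) := by rw [tQ_sq, mul_one]
        · rw [hb, mul_eq_left] at h
          exact h
    have hco : IsCoatom (Subgroup.centralizer ({y} : Set ↥QQ)) := by
      refine ⟨fun e => ?_, fun K hK => ?_⟩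
      · rw [e, Subgroup.index_top] at hidx; omega
      · have h1 := Subgroup.relIndex_mul_index hK.le
        rw [hidx] at h1
        have h3 : (Subgroup.centralizer ({y} : Set ↥QQ)).relIndex K ≠ 1 := fun e =>
          not_le_of_gt hK (Subgroup.relIndex_eq_one.1 e)
        rcases (Nat.dvd_prime Nat.prime_two).1 ⟨_, h1.symm.trans (mul_comm _ _)⟩ with h2 | h2
        · exact Subgroup.index_eq_one.1 h2
        · exfalso
          rw [h2] at h1
          omega
    have h := Subgroup.mem_centralizer_singleton_iff.1 (frattini_le_coatom hco hq)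
    rw [hy, mul_eq_left] at h
    exact tQ_ne h
  · rw [← commutator_eq, frattini, Order.radical]
    refine le_iInf₂ fun M hM => ?_
    have hnil := IsPGroup.isNilpotent (hp := ⟨Nat.prime_two⟩) isP_QQ
    have : M.Normal := (Subgroup.NormalizerCondition.normal_of_coatom M Group.normalizerCondition_of_isNilpotent hM)
    rw [commutator_def, Subgroup.commutator_le]
    intro a _ b _
    have hZ : Subgroup.center ↥QQ ≤ M := by
      by_contra hle
      have htop : M ⊔ Subgroup.center ↥QQ = ⊤ := hM.2 _ (lt_of_le_of_ne le_sup_left fun e => hle (e ▸ le_sup_right))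
      have hcomm : commutator ↥QQ ≤ M := by
        rw [commutator_def, Subgroup.commutator_le]
        intro u _ v _
        have hu : u ∈ M ⊔ Subgroup.center ↥QQ := htop ▸ Subgroup.mem_top u
        have hv : v ∈ M ⊔ Subgroup.center ↥QQ := htop ▸ Subgroup.mem_top v
        obtain ⟨m, hm, z, hz, rfl⟩ := Subgroup.mem_sup_of_normal_right.1 hu
        obtain ⟨n, hn, w, hw, rfl⟩ := Subgroup.mem_sup_of_normal_right.1 hv
        have e : ⁅m * z, n * w⁆ = ⁅m, n⁆ := by
          have hz' : ∀ g, g * z = z * g := fun g => Subgroup.mem_center_iff.1 hz g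
          have hw' : ∀ g, g * w = w * g := fun g => Subgroup.mem_center_iff.1 hw g
          simp only [commutatorElement_def, mul_inv_rev]
          calc m * z * (n * w) * (z⁻¹ * m⁻¹) * (w⁻¹ * n⁻¹)
              = m * (z * (n * w)) * (z⁻¹ * m⁻¹) * (w⁻¹ * n⁻¹) := by group
            _ = m * ((n * w) * z) * (z⁻¹ * m⁻¹) * (w⁻¹ * n⁻¹) := by rw [← hz' (n * w)]
            _ = m * n * (w * m⁻¹) * (w⁻¹ * n⁻¹) := by group
            _ = m * n * (m⁻¹ * w) * (w⁻¹ * n⁻¹) := by rw [← hw' m⁻¹]
            _ = m * n * m⁻¹ * n⁻¹ := by group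
        rw [e, commutatorElement_def]
        exact mul_mem (mul_mem (mul_mem hm hn) (inv_mem hm)) (inv_mem hn)
      exact hle (commutator_eq ▸ hcomm)
    exact hZ (commutator_eq ▸ Subgroup.commutator_mem_commutator (Subgroup.mem_top a) (Subgroup.mem_top b))

theorem extra_QQ : IsExtraspecial 2 ↥QQ := ⟨⟨isP_QQ, frattini_eq, commutator_eq⟩, card_center_QQ⟩

end Cfsg.Agent.FGS4.Co2Cent
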