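import Cfsg.Agent.FGS4.Co2Cent.Cent

/-!
# The kernel of the action on the roots
-/

set_option autoImplicit false
set_option maxRecDepth 20000

namespace Cfsg.Agent.FGS4.Co2Cent

open Cfsg Cfsg.Agent Cfsg.Agent.Golay
open Cfsg.Agent.FGS4.ConwayOut (toFun toList sum_golay toFun_toList)
open scoped Pointwise

theorem pair_connected : ∀ z w : V, z ≠ 0 → w ≠ 0 → ∃ u, pair z u = 1 ∧ pair w u = 1 := by decide +kernel

theorem ker_sign {g : ↥CC} (hg : ∀ z, act g z = z) :
    (∀ z, g.1 • rt z = rt z) ∨ (∀ z, g.1 • rt z = -rt z) := by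
  have h : ∀ z, g.1 • rt z = rt z ∨ g.1 • rt z = -rt z := fun z => by
    simpa [hg] using act_spec g z
  have key : ∀ z w, pair z w = 1 → g.1 • rt z = rt z → g.1 • rt w = rt w := fun z w hp hz => by
    refine (h w).resolve_right fun hw => ?_
    have hd := dot_smul g.1 (rt z) (rt w)
    rw [hz, hw, show dotInt (rt z : GolayPt → ℤ) ((-rt w : ↥leechLattice) : GolayPt → ℤ) =
      -dotInt (rt z : GolayPt → ℤ) (rt w : GolayPt → ℤ) by simp [dotInt], rt_dot] at hd
    have := (rt_pair z w).2
    rw [hp, show dotL (rtList z) (rtList w) = 0 by omega] at this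
    exact absurd this (by decide)
  have pair_comm : ∀ z w : V, pair z w = pair w z := by decide +kernel
  have h00 : g.1 • rt (0 : V) = rt 0 ∧ g.1 • rt (0 : V) = -rt 0 := by
    constructor <;> rw [rt_zero, ← addHom_apply, map_zero] <;> simp
  have b0 : dual (Sum.inl 0) ≠ 0 := by decide +kernel
  by_cases h1 : g.1 • rt (dual (Sum.inl 0)) = rt (dual (Sum.inl 0))
  · left
    intro z
    by_cases hz : z = 0
    · rw [hz]; exact h00.1
    obtain ⟨u, hu1, hu2⟩ := pair_connected _ z b0 hz
    exact key u z (by rw [pair_comm, hu2]) (key _ u hu1 h1)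
  · right
    intro z
    by_cases hz : z = 0
    · rw [hz]; exact h00.2
    refine (h z).resolve_left fun hz1 => h1 ?_
    obtain ⟨u, hu1, hu2⟩ := pair_connected _ z b0 hz
    exact key u _ (by rw [pair_comm, hu1]) (key z u hu2 hz1)

/-- The class with a given number. -/
def dec (n : ℕ) : V
  | Sum.inl j => if n.testBit j.val then 1 else 0
  | Sum.inr j => if n.testBit (3 + j.val) then 1 else 0

/-- The decomposition of a point. -/
def fr (i : GolayPt) : ℤ × ℕ × ℤ × ℕ × ℤ := frameDec.getD (octPts.idxOf (idx i)) (0, 0, 0, 0, 0)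

theorem fr_ok : ∀ i ∈ oct, (∀ j : GolayPt, (if j = i then (8 : ℤ) else 0) =
      (fr i).1 * (if j = none ∨ j = pt 0 then 4 else 0) + (fr i).2.2.1 * toFun (rtList (dec (fr i).2.1)) j +
        (fr i).2.2.2.2 * toFun (rtList (dec (fr i).2.2.2.1)) j) ∧
    (fr i).1 = if i = none ∨ i = pt 0 then 1 else 0 := by decide +kernel

theorem frame_pair : ∀ j : GolayPt, (if j = none then (8 : ℤ) else 0) + (if j = pt 0 then 8 else 0) =
    2 * (if j = none ∨ j = pt 0 then 4 else 0) := by decide +kernel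

theorem e8_apply (i j : GolayPt) : (e8 i : GolayPt → ℤ) j = if j = i then 8 else 0 := by
  show (Pi.single i 8 : GolayPt → ℤ) j = _
  rw [Pi.single_apply]

theorem e8_decomp {i : GolayPt} (hi : i ∈ oct) :
    e8 i = (fr i).1 • vU + (fr i).2.2.1 • rt (dec (fr i).2.1) + (fr i).2.2.2.2 • rt (dec (fr i).2.2.2.1) := by
  refine Subtype.ext (funext fun j => ?_)
  simp only [AddSubgroup.coe_add, AddSubgroup.coe_zsmul, Pi.add_apply, Pi.smul_apply, smul_eq_mul, vU_apply,
    e8_apply]
  exact (fr_ok i hi).1 j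

theorem e8_sum : e8 none + e8 (pt 0) = vU + vU := by
  refine Subtype.ext (funext fun j => ?_)
  simp only [AddSubgroup.coe_add, Pi.add_apply, vU_apply, e8_apply]
  rw [frame_pair, two_mul]

theorem plus_e8 {g : ↥CC} (hg : ∀ z, g.1 • rt z = rt z) {i : GolayPt} (hi : i ∈ oct) : g.1 • e8 i = e8 i := by
  conv_lhs => rw [e8_decomp hi]
  simp only [← addHom_apply, map_add, map_zsmul]
  simp only [addHom_apply, hg, fix_vU]
  exact (e8_decomp hi).symm

theorem minus_e8 {g : ↥CC} (hg : ∀ z, g.1 • rt z = -rt z) {i : GolayPt} (hi : i ∈ oct) :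
    g.1 • e8 i = ((fr i).1 + (fr i).1) • vU - e8 i := by
  conv_lhs => rw [e8_decomp hi]
  simp only [← addHom_apply, map_add, map_zsmul]
  simp only [addHom_apply, hg, fix_vU]
  conv_rhs => rw [e8_decomp hi]
  module

theorem minus_none {g : ↥CC} (hg : ∀ z, g.1 • rt z = -rt z) :
    g.1 • e8 none = e8 (pt 0) ∧ g.1 • e8 (pt 0) = e8 none ∧
      ∀ i ∈ oct, i ≠ none → i ≠ pt 0 → g.1 • e8 i = -e8 i := by
  refine ⟨?_, ?_, fun i hi h1 h2 => ?_⟩
  · rw [minus_e8 hg oct_toFinset.2.2.2.1, (fr_ok _ oct_toFinset.2.2.2.1).2, if_pos (Or.inl rfl), add_smul,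
      one_smul, ← e8_sum, add_sub_cancel_left]
  · rw [minus_e8 hg oct_toFinset.2.2.2.2, (fr_ok _ oct_toFinset.2.2.2.2).2, if_pos (Or.inr rfl), add_smul,
      one_smul, ← e8_sum, add_sub_cancel_right]
  · rw [minus_e8 hg hi, (fr_ok i hi).2, if_neg (by simp [h1, h2]), add_zero, zero_smul, zero_sub]

theorem near_frame {W : GolayPt → ℤ} (hW : W ∈ leechLattice) (k : GolayPt)
    (hn : sqNorm ((Pi.single k 8 : GolayPt → ℤ) + W + W) = 64) :
    ∃ l s, (s = 8 ∨ s = -8) ∧ (Pi.single k 8 : GolayPt → ℤ) + W + W = Pi.single l s := by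
  classical
  obtain ⟨Y, hY⟩ : ∃ Y : GolayPt → ℤ, Y = (Pi.single k 8 : GolayPt → ℤ) + W + W := ⟨_, rfl⟩
  rw [← hY] at hn ⊢
  have hYj : ∀ j, Y j = (if j = k then 8 else 0) + 2 * W j := fun j => by
    rw [hY]; simp only [Pi.add_apply, Pi.single_apply]; ring
  obtain ⟨m, y, hm, hy, hy2, -⟩ := (mem_leech_iff.1 hW).normalize
  rcases hm with rfl | rfl
  swap
  · exfalso
    have h4 : ∀ j, 4 ≤ Y j ^ 2 := fun j => by
      have h1 := hYj j
      have h2 := hy j
      have : Y j ≤ -2 ∨ 2 ≤ Y j := by split_ifs at h1 <;> omega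
      rcases this with h | h <;> nlinarith
    have := Finset.card_nsmul_le_sum (Finset.univ : Finset GolayPt) (fun j => Y j ^ 2) 4 fun j _ => h4 j
    rw [Finset.card_univ, card_golayPt] at this
    simp only [sqNorm] at hn
    rw [hn] at this
    norm_num at this
  obtain ⟨u, hu⟩ : ∃ u : GolayPt → ℤ, ∀ j, u j = (if j = k then 2 else 0) + y j := ⟨_, fun _ => rfl⟩
  have hYu : ∀ j, Y j = 4 * u j := fun j => by
    have := hy j
    rw [hYj, hu]
    split_ifs <;> omega
  have hsq : ∑ j, u j ^ 2 = 4 := by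
    have h1 : sqNorm Y = 16 * ∑ j, u j ^ 2 := by
      simp only [sqNorm, Finset.mul_sum, hYu]
      exact Finset.sum_congr rfl fun j _ => by ring
    omega
  rw [mem_code_iff_support, support₂_red2] at hy2
  have hS : (Finset.univ.filter fun j => ¬ (2 : ℤ) ∣ y j) = ∅ := by
    rw [← Finset.card_eq_zero]
    have h1 : ((Finset.univ.filter fun j => ¬ (2 : ℤ) ∣ y j).card : ℤ) ≤ ∑ j, u j ^ 2 := by
      refine le_trans ?_ (Finset.sum_le_sum_of_subset_of_nonneg (s := Finset.univ.filter fun j => ¬ (2 : ℤ) ∣ y j) (Finset.subset_univ _) fun j _ _ => sq_nonneg _)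
      rw [Finset.cast_card]
      refine Finset.sum_le_sum fun j hj => ?_
      simp only [Finset.mem_filter, Finset.mem_univ, true_and] at hj
      have := hu j
      have : u j ≤ -1 ∨ 1 ≤ u j := by split_ifs at this <;> omega
      rcases this with h | h <;> nlinarith
    have := card_of_mem_supports hy2
    omega
  have heven : ∀ j, ∃ z, u j = 2 * z := fun j => by
    have h1 : (2 : ℤ) ∣ y j := by
      by_contra h
      have : j ∈ (∅ : Finset GolayPt) := hS ▸ by simpa using h
      simp at this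
    have := hu j
    exact ⟨u j / 2, by split_ifs at this <;> omega⟩
  choose z hz using heven
  have hz2 : ∑ j, z j ^ 2 = 1 := by
    have : ∑ j, u j ^ 2 = 4 * ∑ j, z j ^ 2 := by
      rw [Finset.mul_sum]
      exact Finset.sum_congr rfl fun j _ => by rw [hz]; ring
    omega
  obtain ⟨l, -, hl⟩ := Finset.exists_ne_zero_of_sum_ne_zero (show ∑ j, z j ^ 2 ≠ 0 by omega)
  have hpos : 0 < z l ^ 2 := lt_of_le_of_ne (sq_nonneg _) (Ne.symm hl)
  have hsplit := Finset.add_sum_erase Finset.univ (fun j => z j ^ 2) (Finset.mem_univ l)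
  have hrest : ∑ j ∈ Finset.univ.erase l, z j ^ 2 = 0 := by
    have : 0 ≤ ∑ j ∈ Finset.univ.erase l, z j ^ 2 := Finset.sum_nonneg fun j _ => sq_nonneg _
    beta_reduce at hsplit
    omega
  refine ⟨l, Y l, ?_, funext fun j => ?_⟩
  · have h1 : z l ^ 2 = 1 := by beta_reduce at hsplit; omega
    rw [hYu, hz]
    rcases sq_eq_one_iff.1 h1 with h | h <;> rw [h] <;> norm_num
  · by_cases hj : j = l
    · rw [hj, Pi.single_eq_same]
    · have := (Finset.sum_eq_zero_iff_of_nonneg fun j _ => sq_nonneg (z j)).1 hrest j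
        (Finset.mem_erase.2 ⟨hj, Finset.mem_univ j⟩)
      rw [Pi.single_eq_of_ne hj, hYu, hz, pow_eq_zero_iff two_ne_zero] at *
      simp [this]

theorem fourDiff_mem (i : GolayPt) : fourDiff i ∈ leechLattice := by
  by_cases hi : i = none
  · rw [fourDiff, hi, sub_self]; exact zero_mem _
  · refine leechTest_sound (gens_ok _ ?_).1
    have h23 : idx i ≠ 23 := fun e => hi (idx_injective (e.trans rfl))
    simp only [genVecs, List.cons_append, List.mem_cons, List.mem_append, List.mem_map, List.mem_range]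
    exact Or.inr (Or.inr (Or.inr ⟨idx i, by have := idx_lt i; omega, by rw [pt_idx]⟩))

theorem crossFix_of_ref {g : ↥Co0} {k : GolayPt} (h : g • e8 none = e8 k) : CrossFix g := by
  rintro v ⟨i, s, hs, hv⟩
  obtain ⟨w, hw⟩ : ∃ w : ↥leechLattice, w = ⟨fourDiff i, fourDiff_mem i⟩ := ⟨_, rfl⟩
  have he : e8 i = e8 none + w + w := Subtype.ext (funext fun j => by
    rw [hw]
    simp only [AddSubgroup.coe_add, Pi.add_apply, e8_apply, fourDiff, Pi.sub_apply, Pi.single_apply]
    split_ifs <;> ring)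
  obtain ⟨l, r, hr, hl⟩ := near_frame (g • w).2 k (by
    have := co0_norm g (e8 i)
    rw [he, co0_add, co0_add, h, ← he] at this
    simp only [AddSubgroup.coe_add] at this
    refine Eq.trans this ?_
    simp [sqNorm, e8_apply])
  have hval : ((g • e8 i : ↥leechLattice) : GolayPt → ℤ) = Pi.single l r := by
    rw [he, co0_add, co0_add, h, ← hl]
    rfl
  rcases hs with rfl | rfl
  · rw [show v = e8 i from Subtype.ext hv]
    exact ⟨l, r, hr, hval⟩
  · refine ⟨l, -r, by omega, ?_⟩
    have hv' : v = -e8 i := Subtype.ext (by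
      rw [hv, AddSubgroup.coe_neg]
      show (Pi.single i (-8) : GolayPt → ℤ) = -Pi.single i 8
      rw [Pi.single_neg])
    have hneg : g • v = -(g • e8 i) := by
      rw [hv', eq_neg_iff_add_eq_zero, ← co0_add, neg_add_cancel]
      have h0 := co0_add g 0 0
      rw [add_zero, left_eq_add] at h0
      exact h0
    rw [hneg, AddSubgroup.coe_neg, hval, Pi.single_neg]

theorem mono_e8 (σ : Equiv.Perm GolayPt) (hσ : σ ∈ M24) (c : Finset GolayPt)
    (hc : c ∈ supports (golayCode : Set (GolayPt → ZMod 2))) (i : GolayPt) :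
    ((monoEl σ hσ c hc • e8 i : ↥leechLattice) : GolayPt → ℤ) = Pi.single (σ i) (sgnOf c (σ i) * 8) := by
  rw [monoEl_apply]
  exact signedPerm_single σ c i 8

theorem single_inj {a b : GolayPt} {s t : ℤ} (hs : s ≠ 0) (h : (Pi.single a s : GolayPt → ℤ) = Pi.single b t) :
    a = b ∧ s = t := by
  have h1 := congrFun h a
  rw [Pi.single_eq_same] at h1
  by_cases hab : a = b
  · exact ⟨hab, by subst hab; rwa [Pi.single_eq_same] at h1⟩
  · rw [Pi.single_eq_of_ne hab] at h1
    exact absurd h1 hs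

theorem sgn_ne (c : Finset GolayPt) (i : GolayPt) : sgnOf c i * 8 ≠ 0 := by
  unfold sgnOf; split_ifs <;> norm_num

/-- The kernel elements are signed point fixers of the octad. -/
theorem ker_struct {g : ↥CC} (hg : g ∈ actHom.ker) :
    ∃ σ, ∃ hσ : σ ∈ M24, ∃ c, ∃ hc : c ∈ supports (golayCode : Set (GolayPt → ZMod 2)),
      toCo0 g.1 = monoEl σ hσ c hc ∧ (∀ i ∈ oct, σ i = i) ∧ Disjoint c oct := by
  rcases ker_sign (mem_ker_iff.1 hg) with h | h
  · obtain ⟨σ, hσ, c, hc, e⟩ := exists_mono_of_crossFix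
      (crossFix_of_ref (g := toCo0 g.1) (plus_e8 h oct_toFinset.2.2.2.1))
    have key : ∀ i ∈ oct, σ i = i ∧ sgnOf c (σ i) * 8 = 8 := fun i hi => by
      have := congrArg Subtype.val (plus_e8 h hi)
      rw [← toCo0_smul, e, mono_e8] at this
      exact single_inj (sgn_ne _ _) this
    refine ⟨σ, hσ, c, hc, e, fun i hi => (key i hi).1, Finset.disjoint_right.2 fun i hi hic => ?_⟩
    have := (key i hi).2
    rw [(key i hi).1, sgnOf, if_pos hic] at this
    norm_num at this
  · exfalso
    obtain ⟨h1, h2, h3⟩ := minus_none h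
    obtain ⟨σ, hσ, c, hc, e⟩ := exists_mono_of_crossFix (crossFix_of_ref (g := toCo0 g.1) h1)
    have hne : (none : GolayPt) ≠ pt 0 := by decide +kernel
    have p1 : σ none = pt 0 := by
      have := congrArg Subtype.val h1
      rw [← toCo0_smul, e, mono_e8] at this
      exact (single_inj (sgn_ne _ _) this).1
    have p2 : σ (pt 0) = none := by
      have := congrArg Subtype.val h2
      rw [← toCo0_smul, e, mono_e8] at this
      exact (single_inj (sgn_ne _ _) this).1
    have p3 : ∀ i ∈ oct, i ≠ none → i ≠ pt 0 → σ i = i := fun i hi a b => by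
      have := congrArg Subtype.val (h3 i hi a b)
      rw [← toCo0_smul, e, mono_e8, AddSubgroup.coe_neg, show -(e8 i : GolayPt → ℤ) = Pi.single i (-8) from
        (Pi.single_neg (f := fun _ : GolayPt => ℤ) i 8).symm] at this
      exact (single_inj (sgn_ne _ _) this).1
    have hmaps : ∀ i ∈ oct, σ i = Equiv.swap none (pt 0) i := fun i hi => by
      by_cases a : i = none
      · rw [a, p1, Equiv.swap_apply_left]
      by_cases b : i = pt 0
      · rw [b, p2, Equiv.swap_apply_right]
      rw [p3 i hi a b, Equiv.swap_apply_of_ne_of_ne a b]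
    have hstab : σ • oct = oct := by
      refine Finset.eq_of_subset_of_card_le (fun x hx => ?_) (by rw [Finset.card_smul_finset])
      obtain ⟨i, hi, rfl⟩ := Finset.mem_smul_finset.1 hx
      rw [Equiv.Perm.smul_def, hmaps i hi]
      rcases eq_or_ne i none with rfl | a
      · rw [Equiv.swap_apply_left]; exact oct_toFinset.2.2.2.2
      rcases eq_or_ne i (pt 0) with rfl | b
      · rw [Equiv.swap_apply_right]; exact oct_toFinset.2.2.2.1
      rwa [Equiv.swap_apply_of_ne_of_ne a b]
    have hmem : octadRes oct ⟨σ, hσ, hstab⟩ ∈ alternatingGroup ↥oct := octadRes_range oct_mem ▸ ⟨_, rfl⟩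
    have heq : octadRes oct ⟨σ, hσ, hstab⟩ =
        Equiv.swap (⟨none, oct_toFinset.2.2.2.1⟩ : ↥oct) ⟨pt 0, oct_toFinset.2.2.2.2⟩ := by
      refine Equiv.ext fun x => Subtype.ext ?_
      show σ x.1 = _
      rw [hmaps x.1 x.2]
      rcases eq_or_ne x.1 none with a | a
      · have : x = ⟨none, oct_toFinset.2.2.2.1⟩ := Subtype.ext a
        subst this
        simp [Equiv.swap_apply_left]
      rcases eq_or_ne x.1 (pt 0) with b | b
      · have : x = ⟨pt 0, oct_toFinset.2.2.2.2⟩ := Subtype.ext b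
        subst this
        simp [Equiv.swap_apply_right]
      rw [Equiv.swap_apply_of_ne_of_ne a b, Equiv.swap_apply_of_ne_of_ne (fun q => a (congrArg Subtype.val q))
        (fun q => b (congrArg Subtype.val q))]
    rw [heq, Equiv.Perm.mem_alternatingGroup, Equiv.Perm.sign_swap (fun q => hne (congrArg Subtype.val q))] at hmem
    exact absurd hmem (by decide)

end Cfsg.Agent.FGS4.Co2Cent
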