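import Cfsg.Agent.FGS4.Co2Cent.Surj
import Cfsg.Agent.FGS4.Co2Cent.Extra
import Cfsg.Agent.Core.Cores
import Cfsg.Agent.Forms.SympOrder

/-!
# The involution centraliser of Co₂
-/

set_option autoImplicit false

namespace Cfsg.Agent.FGS4.Co2Cent

open Cfsg Cfsg.Agent

/-- The action in matrices. -/
noncomputable def matHom : ↥CC →* ↥(Matrix.symplecticGroup (Fin 3) (ZMod 2)) :=
  (Forms.spEquiv 3 (ZMod 2)).symm.toMonoidHom.comp actHom

theorem matHom_surjective : Function.Surjective matHom :=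
  (Forms.spEquiv 3 (ZMod 2)).symm.surjective.comp actHom_surjective

theorem matHom_ker : matHom.ker = actHom.ker := by
  ext g
  simp [matHom, MonoidHom.mem_ker]

theorem pCore_eq : pCore 2 ↥CC = actHom.ker := by
  refine le_antisymm ?_ (Core.le_pCore inferInstance isP_QQ)
  rw [← matHom_ker, ← Subgroup.map_eq_bot_iff]
  have hN : ((pCore 2 ↥CC).map matHom).Normal := by
    have : (pCore 2 ↥CC).Normal := Subgroup.sSup_normal _ fun _ h => h.1
    exact this.map _ matHom_surjective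
  have hP : IsPGroup 2 ↥((pCore 2 ↥CC).map matHom) := (Core.isPGroup_pCore 2 _).map matHom
  have hF : Fintype.card (ZMod 2) = 2 := ZMod.card 2
  have hZ : Subgroup.center ↥(Matrix.symplecticGroup (Fin 3) (ZMod 2)) = ⊥ :=
    Subgroup.card_eq_one.1 ((Forms.card_center_symplectic hF (by norm_num)).trans (by norm_num))
  have hS : IsSimpleGroup ↥(Matrix.symplecticGroup (Fin 3) (ZMod 2)) := by
    have := Forms.psp_simple (F := ZMod 2) (m := 3) (by norm_num) (by norm_num)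
    exact ((QuotientGroup.quotientBot.symm.trans
      (QuotientGroup.quotientMulEquivOfEq hZ.symm))).isSimpleGroup
  refine (hS.eq_bot_or_eq_top_of_normal _ hN).resolve_right fun h => ?_
  rw [h] at hP
  have : Finite ↥(Matrix.symplecticGroup (Fin 3) (ZMod 2)) := inferInstance
  obtain ⟨n, hn⟩ := (IsPGroup.iff_card (p := 2)).1 hP
  rw [Subgroup.card_top, Forms.card_symplecticGroup hF 3] at hn
  have h3 : 3 ∣ 2 ^ n := hn ▸ (by decide : 3 ∣ 2 ^ (3 ^ 2) * ∏ i ∈ Finset.range 3, (2 ^ (2 * (i + 1)) - 1))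
  exact absurd (Nat.prime_three.dvd_of_dvd_pow h3) (by norm_num)

theorem co2_involution_centralizer :
    ∃ t : ↥Cfsg.Spor.Co2, orderOf t = 2 ∧
      Cfsg.IsExtraspecial 2 (Cfsg.pCore 2 ↥(Subgroup.centralizer ({t} : Set ↥Cfsg.Spor.Co2))) ∧
      Nat.card (Cfsg.pCore 2 ↥(Subgroup.centralizer ({t} : Set ↥Cfsg.Spor.Co2))) = 2 ^ 9 ∧
      Nonempty (↥(Subgroup.centralizer ({t} : Set ↥Cfsg.Spor.Co2)) ⧸
        Cfsg.pCore 2 ↥(Subgroup.centralizer ({t} : Set ↥Cfsg.Spor.Co2)) ≃*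
          Matrix.symplecticGroup (Fin 3) (ZMod 2)) :=
  ⟨tEl, tEl_orderOf, pCore_eq ▸ extra_QQ, pCore_eq ▸ card_QQ,
    ⟨(QuotientGroup.quotientMulEquivOfEq (pCore_eq.trans matHom_ker.symm)).trans
      (QuotientGroup.quotientKerEquivOfSurjective matHom matHom_surjective)⟩⟩

end Cfsg.Agent.FGS4.Co2Cent
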