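import Cfsg.Prelude.Def_Spor_Conway
import Cfsg.Agent.FGS4.Co2Cent.Data
import Cfsg.Agent.Golay.LeechMono
import Cfsg.Agent.Forms.SympBridge
import Cfsg.Agent.Golay.OctadStab
import Cfsg.Agent.FGS4.ConwayOut.Lists

/-!
# The roots orthogonal to the fixed vector on the octad
-/

set_option autoImplicit false
set_option maxRecDepth 20000

namespace Cfsg.Agent.FGS4.Co2Cent

open Cfsg Cfsg.Agent Cfsg.Agent.Golay
open Cfsg.Agent.FGS4.ConwayOut (toFun toList sum_golay toFun_toList)

/-- Six coordinates over two elements. -/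
abbrev V : Type := Fin 3 ⊕ Fin 3 → ZMod 2

/-- The number of a vector. -/
def enc (z : V) : ℕ :=
  (z (Sum.inl 0)).val + 2 * (z (Sum.inl 1)).val + 4 * (z (Sum.inl 2)).val + 8 * (z (Sum.inr 0)).val +
    16 * (z (Sum.inr 1)).val + 32 * (z (Sum.inr 2)).val

/-- The octad. -/
def oct : Finset GolayPt := bset 9347075

theorem oct_mem : oct ∈ octads := octad_base'

/-- The code-free description of the octad. -/
theorem mem_oct (i : GolayPt) : i ∈ oct ↔ octPts.contains (idx i) = true := by
  revert i; decide +kernel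

/-- The root of a class, as a list. -/
def rtList (z : V) : List ℤ := rootTab.getD (enc z) []

/-- Dot product of lists. -/
def dotL (a b : List ℤ) : ℤ := ((List.range 24).map fun i => a.getD i 0 * b.getD i 0).sum

theorem dot_toFun (a b : List ℤ) : dotInt (toFun a) (toFun b) = dotL a b := by
  rw [dotInt, sum_golay, dotL]
  refine congrArg List.sum (List.map_congr_left fun i hi => ?_)
  simp [toFun, idx_pt (List.mem_range.1 hi)]

/-- The basis vector paired with a coordinate. -/
def dual (k : Fin 3 ⊕ Fin 3) : V := fun j => if j = k.swap then 1 else 0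

/-- The symplectic pairing. -/
def pair (z w : V) : ZMod 2 := ∑ k, z k * w k.swap

theorem rt_facts : ∀ z : V,
    leechTest (toFun (rtList z)) = true ∧ (∀ i : GolayPt, octPts.contains (idx i) = false → toFun (rtList z) i = 0) ∧
      (toFun (rtList z) none + toFun (rtList z) (pt 0) = 0) ∧
      dotL (rtList z) (rtList z) = (if z = 0 then 0 else 32) := by decide +kernel

theorem rt_pair : ∀ z w : V, dotL (rtList z) (rtList w) % 16 = 0 ∧
    ((dotL (rtList z) (rtList w) / 16 : ℤ) : ZMod 2) = pair z w := by decide +kernel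

theorem pair_dual : ∀ z : V, ∀ k, pair z (dual k) = z k := by decide +kernel

theorem pair_sympB : ∀ z w : V, Forms.sympB 3 (ZMod 2) z w = pair z w := by
  intro z w
  rw [Forms.sympB_apply]
  revert z w
  decide +kernel

/-- The root of a class. -/
def rt (z : V) : ↥leechLattice := ⟨toFun (rtList z), leechTest_sound (rt_facts z).1⟩

/-- The fixed vector. -/
def vU : ↥leechLattice := Spor.leechU

theorem vU_apply (i : GolayPt) : (vU : GolayPt → ℤ) i = if i = none ∨ i = pt 0 then 4 else 0 := rfl

theorem dot_vU (x : GolayPt → ℤ) : dotInt x (vU : GolayPt → ℤ) = 4 * (x none + x (pt 0)) := by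
  have hne : (none : GolayPt) ≠ pt 0 := by decide +kernel
  rw [dotInt, ← Finset.sum_subset (Finset.subset_univ ({none, pt 0} : Finset GolayPt)), Finset.sum_pair hne,
    vU_apply, vU_apply, if_pos (Or.inl rfl), if_pos (Or.inr rfl)]
  · ring
  · intro i _ hi
    simp only [Finset.mem_insert, Finset.mem_singleton] at hi
    rw [vU_apply, if_neg hi, mul_zero]

/-- The class of a vector. -/
def phi (x : GolayPt → ℤ) : V := fun k => ((dotInt x (rt (dual k) : GolayPt → ℤ) / 16 : ℤ) : ZMod 2)

/-- The class of a list. -/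
def phiL (l : List ℤ) : V := fun k => ((dotL l (rtList (dual k)) / 16 : ℤ) : ZMod 2)

theorem phi_toFun (l : List ℤ) : phi (toFun l) = phiL l := funext fun k => by
  simp only [phi, phiL, rt, dot_toFun]

theorem phi_rt (z : V) : phi (rt z : GolayPt → ℤ) = z := funext fun k => by
  show ((dotInt (toFun (rtList z)) (toFun (rtList (dual k))) / 16 : ℤ) : ZMod 2) = z k
  rw [dot_toFun, (rt_pair z (dual k)).2, pair_dual]

theorem phi_neg_rt (z : V) : phi (-(rt z : GolayPt → ℤ)) = z := funext fun k => by
  have h1 : dotInt (-(rt z : GolayPt → ℤ)) (rt (dual k) : GolayPt → ℤ) = -dotL (rtList z) (rtList (dual k)) := by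
    rw [← dot_toFun]
    simp [dotInt, rt]
  show ((dotInt _ _ / 16 : ℤ) : ZMod 2) = z k
  rw [h1, Int.neg_ediv_of_dvd (Int.dvd_of_emod_eq_zero (rt_pair z (dual k)).1), Int.cast_neg,
    ZMod.neg_eq_self_mod_two, (rt_pair z (dual k)).2, pair_dual]

theorem code_in_oct : (List.range 4096).all (fun i =>
    let n := encode i
    !(n &&& 9347075 == n) || n == 0 || n == 9347075) = true := by decide +kernel

end Cfsg.Agent.FGS4.Co2Cent
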