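import Cfsg.Agent.FGS4.Co2Cent.Cent

/-!
# The action of the centraliser is the whole symplectic group
-/

set_option autoImplicit false
set_option maxRecDepth 20000

namespace Cfsg.Agent.FGS4.Co2Cent

open Cfsg Cfsg.Agent Cfsg.Agent.Golay
open Cfsg.Agent.FGS4.ConwayOut (toFun toList sum_golay toFun_toList matOK matEl matEl_apply matList matFun_toFun)

/-- A permutation code. -/
def mc (k : ℕ) : ℕ := (monoTab.getD k (0, 0, 0)).1
/-- The inverse code. -/
def mi (k : ℕ) : ℕ := (monoTab.getD k (0, 0, 0)).2.1
/-- The sign mask. -/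
def ms (k : ℕ) : ℕ := (monoTab.getD k (0, 0, 0)).2.2

theorem mon_ok : ∀ k : Fin 4, isAut (mc k) = true ∧ inC (ms k) = true ∧
    ((List.range 24).all fun i => decide (app (mi k) i < 24) && (app (mc k) (app (mi k) i) == i)) = true := by
  decide +kernel

theorem block_ok : matOK blockMat = true := by decide +kernel

/-- The monomial element of a letter. -/
noncomputable def monG (k : Fin 4) : ↥Co0 :=
  monoEl (permOf (mc k)) (permOf_mem_M24 (mon_ok k).1) (bset (ms k)) (bset_mem_supports (mon_ok k).2.1)

/-- A monomial map on lists. -/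
def monList (k : Fin 4) (v : List ℤ) : List ℤ :=
  (List.range 24).map fun i => (bif (ms k).testBit i then -1 else 1) * v.getD (app (mi k) i) 0

theorem toFun_map (f : ℕ → ℤ) (i : GolayPt) : toFun ((List.range 24).map f) i = f (idx i) := by
  simp [toFun, List.getD_eq_getElem?_getD, List.getElem?_range (idx_lt i)]

theorem monG_smul (k : Fin 4) (x : ↥leechLattice) (l : List ℤ) (h : (x : GolayPt → ℤ) = toFun l) :
    ((monG k • x : ↥leechLattice) : GolayPt → ℤ) = toFun (monList k l) := by
  funext i
  obtain ⟨h1, h2, h3⟩ := mon_ok k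
  have h4 := List.all_eq_true.1 h3 (idx i) (List.mem_range.2 (idx_lt i))
  simp only [Bool.and_eq_true, decide_eq_true_eq, beq_iff_eq] at h4
  have hs : (permOf (mc k)).symm i = pt (app (mi k) (idx i)) := by
    rw [Equiv.symm_apply_eq, permOf_pt (permOK_of_isAut h1) h4.1, h4.2, pt_idx]
  rw [monG, monoEl_apply, signedPerm_eq, hs, h, monList, toFun_map, sgnOf]
  simp only [toFun, idx_pt h4.1, mem_bset]
  cases (ms k).testBit (idx i) <;> simp

/-- The element of a letter. -/
noncomputable def genG (k : Fin 4) : ↥Co0 := if k = 1 then monG k * matEl blockMat block_ok else monG k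

/-- The element of a letter on lists. -/
def genList (k : Fin 4) (v : List ℤ) : List ℤ := if k = 1 then monList k (matList blockMat v) else monList k v

theorem genG_smul (k : Fin 4) (x : ↥leechLattice) (l : List ℤ) (h : (x : GolayPt → ℤ) = toFun l) :
    ((genG k • x : ↥leechLattice) : GolayPt → ℤ) = toFun (genList k l) := by
  unfold genG genList
  split_ifs with hk
  · rw [mul_smul]
    refine monG_smul k _ _ ?_
    rw [matEl_apply, h, matFun_toFun]
  · exact monG_smul k x l h

/-- The fixed vector as a list. -/
def uList : List ℤ := (List.range 24).map fun i => bif i == 23 || i == 0 then 4 else 0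

/-- A frame vector as a list. -/
def eList (k : ℕ) : List ℤ := (List.range 24).map fun i => bif i == k then 8 else 0

/-- The involution on lists. -/
def tList (v : List ℤ) : List ℤ :=
  (List.range 24).map fun i => bif octPts.contains i then v.getD i 0 else -(v.getD i 0)

theorem tEl_smul (x : ↥leechLattice) (l : List ℤ) (h : (x : GolayPt → ℤ) = toFun l) :
    ((tEl0 • x : ↥leechLattice) : GolayPt → ℤ) = toFun (tList l) := funext fun i => by
  rw [tEl0_apply, h, tList, toFun_map]
  by_cases hi : i ∈ oct
  · rw [if_pos hi, (mem_oct i).1 hi]; rfl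
  · rw [if_neg hi, Bool.eq_false_iff.2 (mt (mem_oct i).2 hi)]; rfl

theorem vU_list : ∀ i : GolayPt, (if i = none ∨ i = pt 0 then (4 : ℤ) else 0) = toFun uList i := by decide +kernel

theorem gen_ok : ∀ k : Fin 4, genList k uList = uList ∧
    ((List.range 24).all fun i => tList (genList k (eList i)) == genList k (tList (eList i))) = true := by
  decide +kernel

theorem genG_fix (k : Fin 4) : genG k • vU = vU := by
  have h : (vU : GolayPt → ℤ) = toFun uList := funext fun i => by rw [vU_apply, vU_list]
  exact Subtype.ext (by rw [genG_smul k vU uList h, (gen_ok k).1, h])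

theorem e8_list (i : GolayPt) : (e8 i : GolayPt → ℤ) = toFun (eList (idx i)) := funext fun j => by
  rw [eList, toFun_map]
  show (Pi.single i 8 : GolayPt → ℤ) j = _
  rw [Pi.single_apply]
  by_cases h : j = i
  · simp [h]
  · simp [h, beq_false_of_ne (idx_injective.ne h)]

theorem genG_comm (k : Fin 4) : tEl0 * genG k = genG k * tEl0 := co0_ext fun i => Subtype.ext (by
  have h := List.all_eq_true.1 (gen_ok k).2 (idx i) (List.mem_range.2 (idx_lt i))
  rw [beq_iff_eq] at h
  rw [mul_smul, mul_smul, tEl_smul _ _ (genG_smul k _ _ (e8_list i)), genG_smul k _ _ (tEl_smul _ _ (e8_list i)), h])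

/-- The centraliser element of a letter. -/
noncomputable def genC (k : Fin 4) : ↥CC :=
  ⟨ofCo0 (genG k) (genG_fix k), Subgroup.mem_centralizer_singleton_iff.2 (toCo0_injective (by
    rw [map_mul, map_mul, toCo0_ofCo0]
    exact (genG_comm k).symm))⟩

/-- The action of a letter on classes. -/
def gAct (k : Fin 4) (z : V) : V := phiL (genList k (rtList z))

theorem act_genC (k : Fin 4) (z : V) : act (genC k) z = gAct k z := by
  rw [act, gAct, ← phi_toFun]
  exact congrArg phi (genG_smul k (rt z) (rtList z) rfl)

/-- The class moved by the transvection. -/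
def tv : V := fun k => match k with
  | Sum.inl j => if tvClass.testBit j.val then 1 else 0
  | Sum.inr j => if tvClass.testBit (3 + j.val) then 1 else 0

theorem tv_ok : ∀ z : V, gAct 0 z = z + pair z tv • tv := by decide +kernel

/-- The image of the class under a word. -/
def wordAct (w : List ℕ) : V := w.foldl (fun a k => gAct (Fin.ofNat 4 k) a) tv

theorem words_ok : ∀ z : V, z ≠ 0 → wordAct (tvWords.getD (enc z) []) = z := by decide +kernel

theorem exists_move : ∀ w : List ℕ, ∃ g : ↥CC, act g tv = wordAct w := by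
  intro w
  induction w using List.reverseRecOn with
  | nil => exact ⟨1, act_one _⟩
  | append_singleton w k ih =>
    obtain ⟨g, hg⟩ := ih
    refine ⟨genC (Fin.ofNat 4 k) * g, ?_⟩
    rw [act_mul, hg, act_genC, wordAct, wordAct, List.foldl_append]
    rfl

theorem actHom_surjective : Function.Surjective actHom := by
  have hA : (Forms.sympB 3 (ZMod 2)).IsAlt := Forms.sympB_isAlt
  refine MonoidHom.range_eq_top.1 (Forms.symTransv_generate _ hA Forms.isForm_symp _ fun z hz c hc => ?_)
  obtain rfl : c = 1 := (by decide : ∀ c : ZMod 2, c ≠ 0 → c = 1) c hc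
  obtain ⟨g, hg⟩ := exists_move (tvWords.getD (enc z) [])
  rw [words_ok z hz] at hg
  refine ⟨g * genC 0 * g⁻¹, Subtype.ext (LinearEquiv.ext fun x => ?_)⟩
  rw [actHom_apply, Forms.symTransv_apply, one_mul, pair_sympB]
  obtain ⟨y, hy⟩ : ∃ y, y = act g⁻¹ x := ⟨_, rfl⟩
  have hx : x = act g y := by rw [hy, ← act_mul, mul_inv_cancel, act_one]
  rw [act_mul, act_mul, ← hy, act_genC, tv_ok, ← actLin_apply, map_add, map_smul, actLin_apply, actLin_apply, ← hx, hg]
  congr 2
  rw [hx, ← hg, pair_act]

end Cfsg.Agent.FGS4.Co2Cent
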